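import Mathlib

/-!
In a group generated by two elements acting quadratically, an element acting as an involution commutes with
the generators in the action (characteristic not two).
-/

set_option autoImplicit false

namespace Cfsg.Agent.Lib.InvZJ

variable {R : Type*} [Ring R] {G : Type*} [Group G] [Finite G]

/-- Every word in two quadratic elements `1 + x`, `1 + y` is `α + βx + γy + δxy` with `α, β, γ, δ` commuting
with `x` and `y`, and its inverse is `α + δ(xy + yx) - βx - γy - δxy`. -/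
theorem quad_normal_form (ρ : G →* R) (a b : G) (hx : (ρ a - 1) * (ρ a - 1) = 0)
    (hy : (ρ b - 1) * (ρ b - 1) = 0) {g : G} (hg : g ∈ Subgroup.closure ({a, b} : Set G)) :
    ∃ α β γ δ : R, (α ∈ Subring.centralizer ({ρ a - 1, ρ b - 1} : Set R)) ∧
      β ∈ Subring.centralizer ({ρ a - 1, ρ b - 1} : Set R) ∧
      γ ∈ Subring.centralizer ({ρ a - 1, ρ b - 1} : Set R) ∧
      δ ∈ Subring.centralizer ({ρ a - 1, ρ b - 1} : Set R) ∧
      ρ g = α + β * (ρ a - 1) + γ * (ρ b - 1) + δ * ((ρ a - 1) * (ρ b - 1)) ∧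
      ρ g⁻¹ = α + δ * ((ρ a - 1) * (ρ b - 1) + (ρ b - 1) * (ρ a - 1)) - β * (ρ a - 1) - γ * (ρ b - 1)
        - δ * ((ρ a - 1) * (ρ b - 1)) := by
  set x := ρ a - 1 with hxdef
  set y := ρ b - 1 with hydef
  clear_value x y
  set s := x * y + y * x with hs
  have hsx : s * x = x * s := by
    simp only [hs, add_mul, mul_add, mul_assoc, hx, mul_zero]
    rw [← mul_assoc x x y, hx, zero_mul, zero_add, add_zero]
  have hsy : s * y = y * s := by
    simp only [hs, add_mul, mul_add, mul_assoc, hy, mul_zero]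
    rw [← mul_assoc y y x, hy, zero_mul, add_zero, zero_add]
  set Z := Subring.centralizer ({x, y} : Set R) with hZ
  have hmem : ∀ {r : R}, r * x = x * r → r * y = y * r → r ∈ Z := fun {r} h1 h2 => by
    rw [hZ, Subring.mem_centralizer_iff]
    rintro u (rfl | hu)
    · exact h1.symm
    · rw [Set.mem_singleton_iff.1 hu]; exact h2.symm
  have hsZ : s ∈ Z := hmem hsx hsy
  have hc : ∀ {r : R}, r ∈ Z → r * x = x * r ∧ r * y = y * r := fun {r} hr =>
    ⟨(Subring.mem_centralizer_iff.1 hr x (Or.inl rfl)).symm, (Subring.mem_centralizer_iff.1 hr y (Or.inr rfl)).symm⟩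
  have ha : ρ a = 1 + x := by rw [hxdef]; abel
  have hb : ρ b = 1 + y := by rw [hydef]; abel
  have hxx : x * x = 0 := hx
  have hyy : y * y = 0 := hy
  have hai : ρ a⁻¹ = 1 - x := by
    have h1 : ρ a * (1 - x) = 1 := by
      simp only [ha, add_mul, mul_sub, one_mul, mul_one, hxx]; abel
    calc ρ a⁻¹ = ρ a⁻¹ * (ρ a * (1 - x)) := by rw [h1, mul_one]
      _ = _ := by rw [← mul_assoc, ← map_mul, inv_mul_cancel, map_one, one_mul]
  have hbi : ρ b⁻¹ = 1 - y := by
    have h1 : ρ b * (1 - y) = 1 := by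
      simp only [hb, add_mul, mul_sub, one_mul, mul_one, hyy]; abel
    calc ρ b⁻¹ = ρ b⁻¹ * (ρ b * (1 - y)) := by rw [h1, mul_one]
      _ = _ := by rw [← mul_assoc, ← map_mul, inv_mul_cancel, map_one, one_mul]
  rw [← Subgroup.mem_toSubmonoid, Subgroup.closure_toSubmonoid_of_finite] at hg
  induction hg using Submonoid.closure_induction_right with
  | one => exact ⟨1, 0, 0, 0, one_mem _, zero_mem _, zero_mem _, zero_mem _, by simp, by simp⟩
  | mul_right g _ c hc' ih =>
    obtain ⟨α, β, γ, δ, hα, hβ, hγ, hδ, h1, h2⟩ := ih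
    obtain ⟨hαx, hαy⟩ := hc hα
    obtain ⟨hβx, hβy⟩ := hc hβ
    obtain ⟨hγx, hγy⟩ := hc hγ
    obtain ⟨hδx, hδy⟩ := hc hδ
    have hyx : y * x = s - x * y := by rw [hs]; abel
    have hxyx : x * y * x = s * x := by
      rw [hs, add_mul, mul_assoc y x x, hxx, mul_zero, add_zero]
    have hyxy : y * x * y = s * y := by
      rw [hs, add_mul, mul_assoc x y y, hyy, mul_zero, zero_add]
    rcases hc' with hca | hcb
    · rw [hca]
      refine ⟨α + γ * s, α + β + δ * s, γ, δ - γ, add_mem hα (mul_mem hγ hsZ),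
        add_mem (add_mem hα hβ) (mul_mem hδ hsZ), hγ, sub_mem hδ hγ, ?_, ?_⟩
      · rw [map_mul, h1, ha]
        simp only [mul_add, add_mul, sub_mul, mul_one, mul_assoc, hxx, mul_zero]
        rw [← mul_assoc x y x, hxyx, hyx]
        simp only [mul_sub]
        abel
      · rw [mul_inv_rev, map_mul, h2, hai]
        simp only [sub_mul, mul_sub, mul_add, add_mul, one_mul, mul_assoc]
        simp only [← mul_assoc x α, ← hαx, ← mul_assoc x β, ← hβx, ← mul_assoc x γ, ← hγx, ← mul_assoc x δ,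
          ← hδx, mul_assoc, hxx, mul_zero]
        rw [← hsx, ← mul_assoc x x y, hxx, zero_mul, mul_zero]
        abel
    · rw [Set.mem_singleton_iff.1 hcb]
      refine ⟨α, β, α + γ, β + δ, hα, hβ, add_mem hα hγ, add_mem hβ hδ, ?_, ?_⟩
      · rw [map_mul, h1, hb]
        simp only [mul_add, add_mul, mul_one, mul_assoc, hyy, mul_zero]
        abel
      · rw [mul_inv_rev, map_mul, h2, hbi]
        simp only [sub_mul, mul_sub, mul_add, add_mul, one_mul, mul_assoc]
        simp only [← mul_assoc y α, ← hαy, ← mul_assoc y β, ← hβy, ← mul_assoc y γ, ← hγy, ← mul_assoc y δ,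
          ← hδy, mul_assoc, hyy, mul_zero]
        rw [← hsy, ← mul_assoc y x y, hyxy, hyx]
        simp only [mul_sub]
        abel

/-- An element acting as an involution commutes with a quadratic generator in the action. -/
theorem commute_of_sq_eq_one {p : ℕ} (hp : Odd p) (hp0 : (p : R) = 0) (ρ : G →* R) (a b : G)
    (hx : (ρ a - 1) * (ρ a - 1) = 0) (hy : (ρ b - 1) * (ρ b - 1) = 0) {t : G}
    (ht : t ∈ Subgroup.closure ({a, b} : Set G)) (ht2 : ρ t * ρ t = 1) : Commute (ρ t) (ρ a) := by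
  obtain ⟨α, β, γ, δ, hα, hβ, hγ, hδ, h1, h2⟩ := quad_normal_form ρ a b hx hy ht
  set x := ρ a - 1 with hxdef
  set y := ρ b - 1 with hydef
  clear_value x y
  have hinv : ρ t⁻¹ = ρ t := by
    calc ρ t⁻¹ = ρ t⁻¹ * (ρ t * ρ t) := by rw [ht2, mul_one]
      _ = ρ t := by rw [← mul_assoc, ← map_mul, inv_mul_cancel, map_one, one_mul]
  have h3 : ρ t + ρ t = α + α + δ * (x * y + y * x) := by
    nth_rewrite 2 [← hinv]
    rw [h1, h2]; abel
  have hz : ρ t + ρ t ∈ Subring.centralizer ({x, y} : Set R) := by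
    rw [h3]
    refine add_mem (add_mem hα hα) (mul_mem hδ ?_)
    rw [Subring.mem_centralizer_iff]
    rintro u (rfl | hu)
    · have hx' : ∀ z : R, u * (u * z) = 0 := fun z => by rw [← mul_assoc, hx, zero_mul]
      simp only [mul_add, add_mul, mul_assoc, hx, hx', mul_zero]; abel
    · rw [Set.mem_singleton_iff.1 hu]
      have hy' : ∀ z : R, y * (y * z) = 0 := fun z => by rw [← mul_assoc, hy, zero_mul]
      simp only [mul_add, add_mul, mul_assoc, hy, hy', mul_zero]; abel
  have h4 : 2 • (x * ρ t - ρ t * x) = 0 := by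
    have := Subring.mem_centralizer_iff.1 hz x (Or.inl rfl)
    rw [mul_add, add_mul] at this
    rw [two_nsmul, show x * ρ t - ρ t * x + (x * ρ t - ρ t * x) =
      (x * ρ t + x * ρ t) - (ρ t * x + ρ t * x) by abel, this, sub_self]
  have h5 : p • (x * ρ t - ρ t * x) = 0 := by rw [nsmul_eq_mul, hp0, zero_mul]
  have h6 : x * ρ t - ρ t * x = 0 := by
    obtain ⟨k, hk⟩ := hp
    calc x * ρ t - ρ t * x = (p - 2 * k) • (x * ρ t - ρ t * x) := by
          rw [show p - 2 * k = 1 by omega, one_nsmul]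
      _ = 0 := by
          have hsum : (p - 2 * k) • (x * ρ t - ρ t * x) + k • (2 • (x * ρ t - ρ t * x)) =
              p • (x * ρ t - ρ t * x) := by
            rw [← mul_nsmul, ← add_nsmul]; congr 1; omega
          rwa [h4, nsmul_zero, add_zero, h5] at hsum
  rw [show ρ a = 1 + x by rw [hxdef]; abel]
  exact (Commute.one_right _).add_right (sub_eq_zero.1 h6).symm

end Cfsg.Agent.Lib.InvZJ
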